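import Cfsg.Agent.Lib.Helper2.PP.Defs

/-!
# S3753 (PP): package [BASE]

A minimal nontrivial `M`-invariant subgroup of `O_p(M)` satisfies the invariant `Inv`.
-/

set_option autoImplicit false
open scoped commutatorElement

namespace Cfsg.Agent.Lib.Helper77.PP

open Cfsg.Agent.Lib.Helper2.PP Cfsg.Agent.Lib.Helper11

universe u

section aux

variable {G : Type u} [Group G]

/-- A group `D` normalizing a nontrivial `p`-group `V` and acting on it as a `p`-group has a
nontrivial fixed point in `V`. -/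
theorem inf_centralizer_ne_bot_of_pow [Finite G] {p : ℕ} [Fact p.Prime] (V D : Subgroup G)
    (hV : IsPGroup p V) (hV1 : V ≠ ⊥) (hDV : D ≤ Subgroup.normalizer (V : Set G))
    (hDp : ∀ d ∈ D, ∃ k : ℕ, d ^ p ^ k ∈ Subgroup.centralizer (V : Set G)) :
    V ⊓ Subgroup.centralizer (D : Set G) ≠ ⊥ := by
  let ρ : ↥D →* MulAut ↥V := V.normalizerMonoidHom.comp (Subgroup.inclusion hDV)
  have hρ : ∀ (d : ↥D) (v : ↥V), ((ρ d v : ↥V) : G) = (d : G) * v * (d : G)⁻¹ := fun _ _ => rfl
  have hQ : IsPGroup p ρ.range := by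
    rintro ⟨_, d, rfl⟩
    obtain ⟨k, hk⟩ := hDp d d.2
    refine ⟨k, Subtype.ext ?_⟩
    show (ρ d) ^ p ^ k = 1
    rw [← map_pow]
    ext v
    rw [hρ, Subgroup.coe_pow]
    have := Subgroup.mem_centralizer_iff.1 hk v v.2
    show (d : G) ^ p ^ k * (v : G) * ((d : G) ^ p ^ k)⁻¹ = v
    rw [← this, mul_inv_cancel_right]
  have hpV : p ∣ Nat.card ↥V := by
    obtain ⟨n, hn⟩ := IsPGroup.iff_card.mp hV
    rw [hn]
    have : n ≠ 0 := by
      intro h0
      rw [h0, pow_zero] at hn
      exact hV1 (Subgroup.card_eq_one.mp hn)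
    exact dvd_pow_self p this
  have h1 : (1 : ↥V) ∈ MulAction.fixedPoints ↥ρ.range ↥V := by
    intro q
    show (q : MulAut ↥V) 1 = 1
    exact map_one _
  obtain ⟨b, hb, hb1⟩ := hQ.exists_fixed_point_of_prime_dvd_card_of_fixed_point ↥V hpV h1
  intro hbot
  apply hb1
  have hmem : (b : G) ∈ V ⊓ Subgroup.centralizer (D : Set G) := by
    refine Subgroup.mem_inf.mpr ⟨b.2, ?_⟩
    rw [Subgroup.mem_centralizer_iff]
    intro d hd
    have h2 : ρ ⟨d, hd⟩ b = b := hb ⟨ρ ⟨d, hd⟩, ⟨⟨d, hd⟩, rfl⟩⟩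
    have h3 : d * (b : G) * d⁻¹ = b := by
      have := congrArg Subtype.val h2
      rwa [hρ] at this
    calc d * (b : G) = d * (b : G) * d⁻¹ * d := by group
      _ = (b : G) * d := by rw [h3]
  rw [hbot, Subgroup.mem_bot] at hmem
  exact (Subtype.ext hmem).symm

end aux

/-- [BASE] -/
theorem pkgBase (hF1 : PkgF1.{u}) : PkgBase.{u} := by
  intro G _ _ p _ hp M N h hQ
  -- a minimal nontrivial `M`-invariant subgroup of `Qof p M`
  let 𝒮 : Set (Subgroup G) :=
    {V | V ≠ ⊥ ∧ V ≤ Qof p M ∧ ∀ m ∈ M, ∀ v ∈ V, m * v * m⁻¹ ∈ V}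
  have hne : 𝒮.Nonempty := ⟨Qof p M, hQ, le_rfl, fun m hm v hv => Qof_conj_mem hm hv⟩
  obtain ⟨V, hVS, hVmin⟩ :=
    WellFounded.has_min (measure (fun V : Subgroup G => Nat.card V)).wf 𝒮 hne
  obtain ⟨hV1, hVQ, hVinv⟩ := hVS
  have hmin : ∀ W : Subgroup G, W ≠ ⊥ → W ≤ V → (∀ m ∈ M, ∀ w ∈ W, m * w * m⁻¹ ∈ W) →
      W = V := by
    intro W hW1 hWV hWinv
    have hlt : ¬ Nat.card W < Nat.card V := hVmin W ⟨hW1, hWV.trans hVQ, hWinv⟩
    exact Subgroup.eq_of_le_of_card_ge hWV (not_lt.1 hlt)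
  have hVp : IsPGroup p V := (Qof_isPGroup p M).to_le hVQ
  have hVM : V ≤ M := hVQ.trans (Qof_le p M)
  have hMV : M ≤ Subgroup.normalizer (V : Set G) := by
    intro m hm
    rw [Subgroup.mem_normalizer_iff]
    intro v
    constructor
    · intro hv
      exact hVinv m hm v hv
    · intro hv
      have := hVinv m⁻¹ (M.inv_mem hm) _ hv
      have e : m⁻¹ * (m * v * m⁻¹) * m⁻¹⁻¹ = v := by group
      rwa [e] at this
  -- (i) `V` is abelian
  have hcomm : ∀ a ∈ V, ∀ b ∈ V, a * b = b * a := by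
    have hW : V ⊓ Subgroup.centralizer (V : Set G) = V := by
      apply hmin
      · -- nontrivial centre
        have : Nontrivial ↥V := (Subgroup.nontrivial_iff_ne_bot V).mpr hV1
        have h1 : Nontrivial (Subgroup.center ↥V) := hVp.center_nontrivial
        obtain ⟨z, hz⟩ := exists_ne (1 : Subgroup.center ↥V)
        intro hbot
        apply hz
        have h2 : ((z : ↥V) : G) ∈ V ⊓ Subgroup.centralizer (V : Set G) := by
          refine Subgroup.mem_inf.mpr ⟨(z : ↥V).2, ?_⟩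
          rw [Subgroup.mem_centralizer_iff]
          intro s hs
          have h3 := (Subgroup.mem_center_iff.mp z.2) ⟨s, hs⟩
          exact congrArg Subtype.val h3
        rw [hbot, Subgroup.mem_bot] at h2
        exact Subtype.ext (Subtype.ext h2)
      · exact inf_le_left
      · intro m hm w hw
        refine Subgroup.mem_inf.mpr ⟨hVinv m hm w hw.1, ?_⟩
        rw [Subgroup.mem_centralizer_iff]
        intro v hv
        have hv' : m⁻¹ * v * m⁻¹⁻¹ ∈ V := hVinv m⁻¹ (M.inv_mem hm) v hv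
        have hc := Subgroup.mem_centralizer_iff.1 hw.2 _ hv'
        calc v * (m * w * m⁻¹) = m * ((m⁻¹ * v * m⁻¹⁻¹) * w) * m⁻¹ := by group
          _ = m * (w * (m⁻¹ * v * m⁻¹⁻¹)) * m⁻¹ := by rw [hc]
          _ = m * w * m⁻¹ * v := by group
    intro a ha b hb
    have hb' : b ∈ Subgroup.centralizer (V : Set G) := by
      have : b ∈ V ⊓ Subgroup.centralizer (V : Set G) := by rw [hW]; exact hb
      exact this.2
    exact Subgroup.mem_centralizer_iff.1 hb' a ha
  -- (ii) `V` has exponent `p`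
  have hexp : ∀ a ∈ V, a ^ p = 1 := by
    let W : Subgroup G :=
      { carrier := {v | v ∈ V ∧ v ^ p = 1}
        mul_mem' := fun {a b} ha hb => ⟨V.mul_mem ha.1 hb.1, by
          have hc : Commute a b := hcomm a ha.1 b hb.1
          rw [hc.mul_pow, ha.2, hb.2, one_mul]⟩
        one_mem' := ⟨V.one_mem, one_pow _⟩
        inv_mem' := fun {a} ha => ⟨V.inv_mem ha.1, by rw [inv_pow, ha.2, inv_one]⟩ }
    have hW : W = V := by
      apply hmin
      · have hpV : p ∣ Nat.card ↥V := by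
          obtain ⟨n, hn⟩ := IsPGroup.iff_card.mp hVp
          rw [hn]
          have : n ≠ 0 := by
            intro h0
            rw [h0, pow_zero] at hn
            exact hV1 (Subgroup.card_eq_one.mp hn)
          exact dvd_pow_self p this
        obtain ⟨x, hx⟩ := exists_prime_orderOf_dvd_card' p hpV
        intro hbot
        have hxW : (x : G) ∈ W := by
          refine ⟨x.2, ?_⟩
          have := pow_orderOf_eq_one x
          rw [hx] at this
          have h2 := congrArg Subtype.val this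
          simpa using h2
        rw [hbot, Subgroup.mem_bot] at hxW
        have hx1 : x = 1 := Subtype.ext hxW
        rw [hx1, orderOf_one] at hx
        exact (Fact.out : p.Prime).one_lt.ne hx
      · intro w hw
        exact hw.1
      · intro m hm w hw
        refine ⟨hVinv m hm w hw.1, ?_⟩
        rw [conj_pow, hw.2, mul_one, mul_inv_cancel]
    intro a ha
    have : a ∈ W := by rw [hW]; exact ha
    exact this.2
  have hVea : Cfsg.IsElementaryAbelian p V :=
    ⟨⟨⟨fun a b => Subtype.ext (hcomm a a.2 b b.2)⟩⟩, hexp⟩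
  have hVV : ⁅V, V⁆ = ⊥ := by
    rw [eq_bot_iff, Subgroup.commutator_le]
    intro a ha b hb
    rw [Subgroup.mem_bot, commutatorElement_eq_one_iff_mul_comm]
    exact hcomm a ha b hb
  -- (iii) `V ≤ Qof p N`
  have hVN : V ≤ N := hVQ.trans h.qM
  have hVQN : V ≤ Qof p N := by
    apply hF1 hp N V h.tN h.cN hVN
    rw [eq_bot_iff, ← hVV]
    refine Subgroup.commutator_mono ?_ le_rfl
    rw [Subgroup.commutator_le]
    intro g hg v hv
    have hgM : g ∈ M := h.qN hg
    have : g * v * g⁻¹ ∈ V := hVinv g hgM v hv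
    rw [commutatorElement_def]
    exact V.mul_mem this (V.inv_mem hv)
  refine ⟨V, hV1, hMV, hVQ, hVQN, hVea, ?_⟩
  -- (iv) the quadratic condition
  intro X hX hquad
  rw [eq_bot_iff, Subgroup.commutator_le]
  intro v hv a ha
  rw [Subgroup.mem_bot, commutatorElement_eq_one_iff_mul_comm]
  have haM : a ∈ M := h.qN (hX ha)
  have hq : ⁅⁅V, Subgroup.zpowers a⁆, Subgroup.zpowers a⁆ = ⊥ := by
    rw [eq_bot_iff, ← hquad]
    have hz : Subgroup.zpowers a ≤ X := by
      rw [Subgroup.zpowers_le]; exact ha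
    exact Subgroup.commutator_mono (Subgroup.commutator_mono le_rfl hz) hz
  obtain ⟨D, hDM, hDn, -, hDp, haD⟩ := quad_stable_sub hp V M hVea hMV h.tM a haM hq
  have hW : V ⊓ Subgroup.centralizer (D : Set G) = V := by
    apply hmin
    · exact inf_centralizer_ne_bot_of_pow V D hVp hV1 (hDM.trans hMV) hDp
    · exact inf_le_left
    · intro m hm w hw
      refine Subgroup.mem_inf.mpr ⟨hVinv m hm w hw.1, ?_⟩
      rw [Subgroup.mem_centralizer_iff]
      intro d hd
      have hd' : m⁻¹ * d * m⁻¹⁻¹ ∈ D := hDn m⁻¹ (M.inv_mem hm) d hd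
      have hc := Subgroup.mem_centralizer_iff.1 hw.2 _ hd'
      calc d * (m * w * m⁻¹) = m * ((m⁻¹ * d * m⁻¹⁻¹) * w) * m⁻¹ := by group
        _ = m * (w * (m⁻¹ * d * m⁻¹⁻¹)) * m⁻¹ := by rw [hc]
        _ = m * w * m⁻¹ * d := by group
  have hvC : v ∈ Subgroup.centralizer (D : Set G) := by
    have : v ∈ V ⊓ Subgroup.centralizer (D : Set G) := by rw [hW]; exact hv
    exact this.2
  exact (Subgroup.mem_centralizer_iff.1 hvC a haD).symm

end Cfsg.Agent.Lib.Helper77.PP
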